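import Mathlib
import Cfsg.Agent.S2577

set_option autoImplicit false

/-!
Jordan chains for nilpotent endomorphisms (helper16): existence of a Jordan chain basis,
the rank formula, conjugacy of matrices with the same chain type, and representatives.
-/

namespace Cfsg.Agent.Helper16.Jordan

section lin
variable {F V : Type*} [Field F] [AddCommGroup V] [Module F V]

theorem pow_zero_of_le (N : Module.End F V) (w : V) (a : ℕ) (h : (N ^ a) w = 0) (e : ℕ)
    (hae : a ≤ e) : (N ^ e) w = 0 := by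
  obtain ⟨c, rfl⟩ := Nat.exists_eq_add_of_le hae
  rw [add_comm, pow_add, Module.End.mul_apply, h, map_zero]

theorem pow_succ_apply (N : Module.End F V) (w : V) (l : ℕ) :
    (N ^ (l + 1)) w = N ((N ^ l) w) := by
  rw [pow_succ', Module.End.mul_apply]

theorem pow_succ_apply' (N : Module.End F V) (w : V) (l : ℕ) :
    (N ^ (l + 1)) w = (N ^ l) (N w) := by
  rw [pow_succ, Module.End.mul_apply]

theorem pow_add_apply (N : Module.End F V) (w : V) (j l : ℕ) :
    (N ^ (j + l)) w = (N ^ j) ((N ^ l) w) := by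
  rw [pow_add, Module.End.mul_apply]

/-- The family of chain vectors `N ^ l (v i)`, `l < m i`. -/
def fam (N : Module.End F V) {ι : Type} (m : ι → ℕ) (v : ι → V) : (Σ i, Fin (m i)) → V :=
  fun x => (N ^ (x.2 : ℕ)) (v x.1)

/-- Jordan chain data for `N` on the subspace `U`: generators `v i` of chains of length
`m i`. -/
structure JD (N : Module.End F V) (U : Submodule F V) {ι : Type} (m : ι → ℕ) (v : ι → V) :
    Prop where
  zero : ∀ i, (N ^ m i) (v i) = 0
  li : LinearIndependent F (fam N m v)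
  span : Submodule.span F (Set.range (fam N m v)) = U

/-- Reindexing equivalence used in `exists_JD`. -/
def sigE {ι' : Type} (m₀ : ℕ) (m' : ι' → ℕ) :
    (Σ i : Unit ⊕ ι', Fin (Sum.elim (fun _ => m₀) m' i)) ≃ Fin m₀ ⊕ (Σ i : ι', Fin (m' i)) where
  toFun := fun x => match x with
    | ⟨Sum.inl _, l⟩ => Sum.inl l
    | ⟨Sum.inr i, l⟩ => Sum.inr ⟨i, l⟩
  invFun := fun y => match y with
    | Sum.inl l => ⟨Sum.inl (), l⟩
    | Sum.inr ⟨i, l⟩ => ⟨Sum.inr i, l⟩
  left_inv := by rintro ⟨(⟨⟩ | i), l⟩ <;> rfl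
  right_inv := by rintro (l | ⟨i, l⟩) <;> rfl

/-- Existence of Jordan chain data for a nilpotent endomorphism on every invariant
subspace. -/
theorem exists_JD [FiniteDimensional F V] (N : Module.End F V) (k : ℕ) (hk : N ^ k = 0) :
    ∀ d : ℕ, ∀ U : Submodule F V, (∀ u ∈ U, N u ∈ U) → Module.finrank F U = d →
      ∃ (ι : Type) (_ : Fintype ι) (m : ι → ℕ) (v : ι → V), (∀ i, 0 < m i) ∧ JD N U m v := by
  classical
  intro d
  induction d using Nat.strong_induction_on with
  | _ d ih =>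
    intro U hU hd
    by_cases hbot : U = ⊥
    · refine ⟨Empty, inferInstance, fun i => i.elim, fun i => i.elim, fun i => i.elim,
        fun i => i.elim, ?_, ?_⟩
      · exact linearIndependent_empty_type
      · rw [hbot, Submodule.span_eq_bot]
        rintro w ⟨⟨i, -⟩, -⟩
        exact i.elim
    · have hUpow : ∀ l : ℕ, ∀ u ∈ U, (N ^ l) u ∈ U := by
        intro l
        induction l with
        | zero => intro u hu; simpa using hu
        | succ l ihl => intro u hu; rw [pow_succ_apply]; exact hU _ (ihl u hu)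
      have hex : ∃ j : ℕ, ∀ u ∈ U, (N ^ j) u = 0 :=
        ⟨k, fun u _ => by rw [hk, LinearMap.zero_apply]⟩
      obtain ⟨m₀, hm₀, hmin⟩ : ∃ m₀ : ℕ, (∀ u ∈ U, (N ^ m₀) u = 0) ∧
          ∀ j < m₀, ¬ ∀ u ∈ U, (N ^ j) u = 0 :=
        ⟨Nat.find hex, Nat.find_spec hex, fun j hj => Nat.find_min hex hj⟩
      have hm₀pos : 0 < m₀ := by
        rcases Nat.eq_zero_or_pos m₀ with h0 | h0
        · exfalso
          apply hbot
          rw [Submodule.eq_bot_iff]
          intro u hu
          have h1 := hm₀ u hu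
          rw [h0, pow_zero, Module.End.one_apply] at h1
          exact h1
        · exact h0
      obtain ⟨m₁, rfl⟩ : ∃ m₁, m₀ = m₁ + 1 := ⟨m₀ - 1, by omega⟩
      have hmin' := hmin m₁ (Nat.lt_succ_self _)
      push Not at hmin'
      obtain ⟨v₀, hv₀U, hv₀⟩ := hmin'
      have hnot : (N ^ m₁) v₀ ∉ (⊥ : Submodule F V) := by
        rw [Submodule.mem_bot]; exact hv₀
      obtain ⟨f, hf1, -⟩ := Submodule.exists_dual_map_eq_bot_of_notMem hnot inferInstance
      obtain ⟨φ, hφ1⟩ : ∃ φ : V →ₗ[F] F, φ ((N ^ m₁) v₀) = 1 :=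
        ⟨(f ((N ^ m₁) v₀))⁻¹ • f, by simp [hf1]⟩
      obtain ⟨U', hU'mem, hU'fr⟩ : ∃ U' : Submodule F V,
          (∀ w, w ∈ U' ↔ w ∈ U ∧ ∀ j : Fin (m₁ + 1), φ ((N ^ (j : ℕ)) w) = 0) ∧
          Module.finrank F U ≤ Module.finrank F U' + (m₁ + 1) := by
        obtain ⟨Ψ, hΨ⟩ : ∃ Ψ : V →ₗ[F] (Fin (m₁ + 1) → F),
            ∀ w j, Ψ w j = φ ((N ^ (j : ℕ)) w) :=
          ⟨LinearMap.pi (fun j => φ ∘ₗ (N ^ (j : ℕ))), fun _ _ => rfl⟩
        refine ⟨U ⊓ LinearMap.ker Ψ, ?_, ?_⟩
        · intro w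
          rw [Submodule.mem_inf, LinearMap.mem_ker]
          constructor
          · rintro ⟨h1, h2⟩
            refine ⟨h1, fun j => ?_⟩
            rw [← hΨ, h2]; rfl
          · rintro ⟨h1, h2⟩
            refine ⟨h1, ?_⟩
            funext j
            rw [hΨ, h2]; rfl
        · have h1 := Submodule.finrank_sup_add_finrank_inf_eq U (LinearMap.ker Ψ)
          have h2 := LinearMap.finrank_range_add_finrank_ker Ψ
          have h3 : Module.finrank F (LinearMap.range Ψ) ≤ m₁ + 1 := by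
            have h := Submodule.finrank_le (LinearMap.range Ψ)
            rwa [Module.finrank_fin_fun] at h
          have h4 := Submodule.finrank_le (U ⊔ LinearMap.ker Ψ)
          omega
      have hU'le : U' ≤ U := fun w hw => ((hU'mem w).1 hw).1
      have hU'inv : ∀ w ∈ U', N w ∈ U' := by
        intro w hw
        rw [hU'mem] at hw ⊢
        refine ⟨hU w hw.1, fun j => ?_⟩
        rw [← pow_succ_apply']
        by_cases hj : (j : ℕ) + 1 < m₁ + 1
        · exact hw.2 ⟨(j : ℕ) + 1, hj⟩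
        · have hj' : (j : ℕ) + 1 = m₁ + 1 := by have := j.2; omega
          rw [hj', hm₀ w hw.1, map_zero]
      have hv₀U' : v₀ ∉ U' := by
        intro h
        have h1 : φ ((N ^ m₁) v₀) = 0 := ((hU'mem v₀).1 h).2 ⟨m₁, Nat.lt_succ_self _⟩
        rw [hφ1] at h1
        exact one_ne_zero h1
      have hlt : U' < U := lt_of_le_of_ne hU'le (fun h => hv₀U' (by rw [h]; exact hv₀U))
      have hfr : Module.finrank F U' < d := by
        rw [← hd]; exact Submodule.finrank_lt_finrank_of_lt hlt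
      obtain ⟨ι', hι', m', v', hpos', hz', hli', hsp'⟩ := ih _ hfr U' hU'inv rfl
      have := hι'
      have hzero : ∀ e : ℕ, m₁ + 1 ≤ e → (N ^ e) v₀ = 0 :=
        fun e he => pow_zero_of_le N v₀ (m₁ + 1) (hm₀ v₀ hv₀U) e he
      have hK : ∀ a : Fin (m₁ + 1) → F, (∑ l, a l • (N ^ (l : ℕ)) v₀) ∈ U' → ∀ l, a l = 0 := by
        intro a ha
        have hφ0 := ((hU'mem _).1 ha).2
        have key : ∀ l : ℕ, ∀ hl : l < m₁ + 1, a ⟨l, hl⟩ = 0 := by
          intro l
          induction l using Nat.strong_induction_on with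
          | _ l ihl =>
            intro hl
            have h1 : φ ((N ^ (m₁ - l)) (∑ l', a l' • (N ^ (l' : ℕ)) v₀)) = 0 :=
              hφ0 ⟨m₁ - l, by omega⟩
            rw [map_sum, map_sum, Finset.sum_eq_single ⟨l, hl⟩] at h1
            · have h2 : φ ((N ^ (m₁ - l)) (a ⟨l, hl⟩ • (N ^ l) v₀)) = 0 := h1
              rw [map_smul, map_smul, ← pow_add_apply] at h2
              have he : m₁ - l + l = m₁ := by omega
              rw [he, hφ1, smul_eq_mul, mul_one] at h2
              exact h2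
            · intro l' _ hne
              rw [map_smul, map_smul, ← pow_add_apply]
              have hne' : (l' : ℕ) ≠ l := fun h => hne (Fin.ext h)
              rcases Nat.lt_or_gt_of_ne hne' with hlt | hgt
              · have hz : a l' = 0 := ihl l' hlt l'.2
                rw [hz, zero_smul]
              · have hz : (N ^ (m₁ - l + (l' : ℕ))) v₀ = 0 := hzero _ (by omega)
                rw [hz, map_zero, smul_zero]
            · intro h
              exact absurd (Finset.mem_univ _) h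
        exact fun l => key l.1 l.2
      have hliC : LinearIndependent F (fun l : Fin (m₁ + 1) => (N ^ (l : ℕ)) v₀) := by
        rw [Fintype.linearIndependent_iff]
        intro a ha
        exact hK a (by rw [ha]; exact U'.zero_mem)
      have hCU : Submodule.span F (Set.range (fun l : Fin (m₁ + 1) => (N ^ (l : ℕ)) v₀))
          ≤ U := by
        rw [Submodule.span_le]
        rintro _ ⟨l, rfl⟩
        exact hUpow _ _ hv₀U
      have hdisj : Disjoint
          (Submodule.span F (Set.range (fun l : Fin (m₁ + 1) => (N ^ (l : ℕ)) v₀)))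
          (Submodule.span F (Set.range (fam N m' v'))) := by
        rw [hsp', Submodule.disjoint_def]
        intro w hw hw'
        rw [Submodule.mem_span_range_iff_exists_fun] at hw
        obtain ⟨a, rfl⟩ := hw
        have h0 := hK a hw'
        simp [h0]
      have hsup : Submodule.span F (Set.range (fun l : Fin (m₁ + 1) => (N ^ (l : ℕ)) v₀)) ⊔
          Submodule.span F (Set.range (fam N m' v')) = U := by
        rw [hsp']
        apply Submodule.eq_of_le_of_finrank_le (sup_le hCU hU'le)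
        have h1 := Submodule.finrank_sup_add_finrank_inf_eq
          (Submodule.span F (Set.range (fun l : Fin (m₁ + 1) => (N ^ (l : ℕ)) v₀))) U'
        have h2 : Submodule.span F (Set.range (fun l : Fin (m₁ + 1) => (N ^ (l : ℕ)) v₀)) ⊓ U'
            = ⊥ := by
          rw [← hsp']; exact disjoint_iff.1 hdisj
        rw [h2, finrank_bot, finrank_span_eq_card hliC, Fintype.card_fin] at h1
        omega
      have hli := hliC.sum_type hli' hdisj
      have hcomp : fam N (Sum.elim (fun _ : Unit => m₁ + 1) m')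
            (Sum.elim (fun _ : Unit => v₀) v')
          = Sum.elim (fun l : Fin (m₁ + 1) => (N ^ (l : ℕ)) v₀) (fam N m' v')
            ∘ sigE (m₁ + 1) m' := by
        funext x
        rcases x with ⟨(⟨⟩ | i), l⟩ <;> rfl
      refine ⟨Unit ⊕ ι', inferInstance, Sum.elim (fun _ => m₁ + 1) m',
        Sum.elim (fun _ => v₀) v', ?_, ?_, ?_, ?_⟩
      · rintro (⟨⟩ | i)
        · exact Nat.succ_pos _
        · exact hpos' i
      · rintro (⟨⟩ | i)
        · exact hm₀ v₀ hv₀U
        · exact hz' i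
      · rw [hcomp]
        exact hli.comp _ (sigE (m₁ + 1) m').injective
      · rw [hcomp, (sigE (m₁ + 1) m').surjective.range_comp, Set.Sum.elim_range,
          Submodule.span_union, hsup]

/-- Shift of chain indices. -/
def inc {ι : Type} (m : ι → ℕ) (j : ℕ) : (Σ i, Fin (m i - j)) → (Σ i, Fin (m i)) :=
  fun x => ⟨x.1, ⟨j + x.2.1, by have := x.2.2; omega⟩⟩

theorem inc_injective {ι : Type} (m : ι → ℕ) (j : ℕ) : Function.Injective (inc m j) := by
  intro x y hxy
  obtain ⟨i, t⟩ := x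
  obtain ⟨i', t'⟩ := y
  have h1 : i = i' := congrArg Sigma.fst hxy
  subst h1
  have h3 : j + (t : ℕ) = j + (t' : ℕ) :=
    congrArg (fun z : Σ i, Fin (m i) => (z.2 : ℕ)) hxy
  have h4 : t = t' := Fin.ext (by omega)
  rw [h4]

/-- The rank of `N ^ j` in terms of the chain lengths. -/
theorem JD.finrank_range_pow {N : Module.End F V} {ι : Type} [Fintype ι] {m : ι → ℕ}
    {v : ι → V} (h : JD N ⊤ m v) (j : ℕ) :
    Module.finrank F (LinearMap.range (N ^ j)) = ∑ i, (m i - j) := by
  classical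
  have hfam : ∀ x : Σ i, Fin (m i - j),
      fam N m v (inc m j x) = (N ^ j) ((N ^ (x.2 : ℕ)) (v x.1)) := by
    intro x
    exact pow_add_apply N (v x.1) j x.2
  have hli : LinearIndependent F (fam N m v ∘ inc m j) := h.li.comp _ (inc_injective m j)
  have hspan : Submodule.span F (Set.range (fam N m v ∘ inc m j)) = LinearMap.range (N ^ j) := by
    apply le_antisymm
    · rw [Submodule.span_le]
      rintro _ ⟨x, rfl⟩
      exact ⟨(N ^ (x.2 : ℕ)) (v x.1), (hfam x).symm⟩
    · rw [LinearMap.range_eq_map, ← h.span, Submodule.map_span, Submodule.span_le]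
      rintro _ ⟨_, ⟨⟨i, l⟩, rfl⟩, rfl⟩
      by_cases hl : j + (l : ℕ) < m i
      · apply Submodule.subset_span
        refine ⟨⟨i, ⟨l, by omega⟩⟩, ?_⟩
        show (N ^ (j + (l : ℕ))) (v i) = (N ^ j) ((N ^ (l : ℕ)) (v i))
        exact pow_add_apply N (v i) j l
      · have hz : (N ^ j) (fam N m v ⟨i, l⟩) = 0 := by
          show (N ^ j) ((N ^ (l : ℕ)) (v i)) = 0
          rw [← pow_add_apply]
          exact pow_zero_of_le N (v i) (m i) (h.zero i) _ (by omega)
        rw [hz]
        exact Submodule.zero_mem _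
  rw [← hspan, finrank_span_eq_card hli, Fintype.card_sigma]
  simp only [Fintype.card_fin]

theorem JD.pow_eq_zero {N : Module.End F V} {ι : Type} {m : ι → ℕ} {v : ι → V}
    (h : JD N ⊤ m v) (p : ℕ) (hp : ∀ i, m i ≤ p) : N ^ p = 0 := by
  have hB : ∀ x, (N ^ p) (fam N m v x) = 0 := by
    rintro ⟨i, l⟩
    show (N ^ p) ((N ^ (l : ℕ)) (v i)) = 0
    rw [← pow_add_apply]
    exact pow_zero_of_le N (v i) (m i) (h.zero i) _ (by have := hp i; omega)
  refine LinearMap.ext_on h.span ?_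
  rintro _ ⟨x, rfl⟩
  rw [hB x, LinearMap.zero_apply]

theorem JD.ne_zero {N : Module.End F V} {ι : Type} {m : ι → ℕ} {v : ι → V}
    (h : JD N ⊤ m v) (i : ι) (hi : 2 ≤ m i) : N ≠ 0 := by
  intro h0
  have h1 := h.li.ne_zero ⟨i, ⟨1, by omega⟩⟩
  apply h1
  show (N ^ 1) (v i) = 0
  rw [h0, pow_one, LinearMap.zero_apply]

theorem JD.eq_zero_of_ones {N : Module.End F V} {ι : Type} {m : ι → ℕ} {v : ι → V}
    (h : JD N ⊤ m v) (h1 : ∀ i, m i = 1) : N = 0 := by
  refine LinearMap.ext_on h.span ?_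
  rintro _ ⟨⟨i, l⟩, rfl⟩
  have hl : (l : ℕ) = 0 := by have := l.2; have := h1 i; omega
  have hz := h.zero i
  rw [h1 i, pow_one] at hz
  show N ((N ^ (l : ℕ)) (v i)) = 0
  rw [hl, pow_zero, Module.End.one_apply, hz]

theorem JD.le_of_pow_eq_zero {N : Module.End F V} {ι : Type} {m : ι → ℕ} {v : ι → V}
    (h : JD N ⊤ m v) (p : ℕ) (hp : N ^ p = 0) (i : ι) : m i ≤ p := by
  by_contra hlt
  have hlt' : p < m i := by omega
  have h1 := h.li.ne_zero ⟨i, ⟨p, hlt'⟩⟩
  apply h1
  show (N ^ p) (v i) = 0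
  rw [hp, LinearMap.zero_apply]

end lin

section count

theorem card_fiber {ι : Type} [Fintype ι] (m : ι → ℕ) (a : ℕ) [Fintype {i // m i = a}] :
    Fintype.card {i // m i = a} = Multiset.count a (Finset.univ.val.map m) := by
  classical
  rw [Fintype.card_subtype, Multiset.count_map, ← Finset.filter_val, ← Finset.card_def]
  congr 1
  ext i
  simp [eq_comm]

theorem count_identity {ι : Type} [Fintype ι] (m : ι → ℕ) (a : ℕ) (ha : 1 ≤ a) :
    Multiset.count a (Finset.univ.val.map m) + 2 * ∑ i, (m i - a)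
      = ∑ i, (m i - (a - 1)) + ∑ i, (m i - (a + 1)) := by
  classical
  have h1 : Multiset.count a (Finset.univ.val.map m) = ∑ i, (if m i = a then 1 else 0) := by
    rw [Multiset.count_map, ← Finset.filter_val, ← Finset.card_def, Finset.card_filter]
    refine Finset.sum_congr rfl (fun i _ => ?_)
    by_cases h : m i = a
    · rw [if_pos h, if_pos h.symm]
    · rw [if_neg h, if_neg (fun h' => h h'.symm)]
  rw [h1, Finset.mul_sum, ← Finset.sum_add_distrib, ← Finset.sum_add_distrib]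
  refine Finset.sum_congr rfl (fun i _ => ?_)
  split_ifs <;> omega

end count

section mat
variable {F : Type*} [Field F]

theorem JD.sum_eq {n : ℕ} {N : Module.End F (Fin n → F)} {ι : Type} [Fintype ι] {m : ι → ℕ}
    {v : ι → Fin n → F} (h : JD N ⊤ m v) : ∑ i, m i = n := by
  have h1 := finrank_span_eq_card h.li
  rw [h.span, finrank_top, Module.finrank_fin_fun, Fintype.card_sigma] at h1
  simp only [Fintype.card_fin] at h1
  exact h1.symm

/-- Matrices with Jordan chain data of the same type are conjugate. -/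
theorem conj_of_JD {n : ℕ} (M M' : Matrix (Fin n) (Fin n) F)
    {ι ι' : Type} [Fintype ι] [Fintype ι'] {m : ι → ℕ} {v : ι → Fin n → F} {m' : ι' → ℕ}
    {v' : ι' → Fin n → F}
    (h : JD (Matrix.toLin' M) ⊤ m v) (h' : JD (Matrix.toLin' M') ⊤ m' v')
    (hm : Finset.univ.val.map m = Finset.univ.val.map m') :
    ∃ x : GL (Fin n) F,
      (x : Matrix (Fin n) (Fin n) F) * M = M' * (x : Matrix (Fin n) (Fin n) F) := by
  classical
  have hcard : ∀ a : ℕ, Fintype.card {i // m i = a} = Fintype.card {i // m' i = a} := by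
    intro a
    rw [card_fiber m a, card_fiber m' a, hm]
  obtain ⟨σ, hσ⟩ : ∃ σ : ι ≃ ι', ∀ i, m' (σ i) = m i :=
    ⟨Equiv.ofFiberEquiv (fun a => Fintype.equivOfCardEq (hcard a)),
      fun i => Equiv.ofFiberEquiv_map _ i⟩
  obtain ⟨E, hE1, hE2⟩ : ∃ E : (Σ i, Fin (m i)) ≃ (Σ i, Fin (m' i)),
      (∀ x, (E x).1 = σ x.1) ∧ ∀ x, ((E x).2 : ℕ) = x.2 :=
    ⟨Equiv.sigmaCongr σ (fun i => finCongr (hσ i).symm), fun x => rfl, fun x => rfl⟩
  obtain ⟨B, hB⟩ : ∃ B : Module.Basis (Σ i, Fin (m i)) F (Fin n → F),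
      ∀ x, B x = fam (Matrix.toLin' M) m v x :=
    ⟨Module.Basis.mk h.li h.span.ge, fun x => Module.Basis.mk_apply h.li h.span.ge x⟩
  obtain ⟨B', hB'⟩ : ∃ B' : Module.Basis (Σ i, Fin (m' i)) F (Fin n → F),
      ∀ x, B' x = fam (Matrix.toLin' M') m' v' x :=
    ⟨Module.Basis.mk h'.li h'.span.ge, fun x => Module.Basis.mk_apply h'.li h'.span.ge x⟩
  obtain ⟨φ, hφ⟩ : ∃ φ : (Fin n → F) ≃ₗ[F] (Fin n → F), ∀ x, φ (B x) = B' (E x) :=
    ⟨B.equiv B' E, fun x => Module.Basis.equiv_apply _ _ _ _⟩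
  have key : ∀ (i : ι) (e : ℕ), φ (((Matrix.toLin' M) ^ e) (v i))
      = ((Matrix.toLin' M') ^ e) (v' (σ i)) := by
    intro i e
    by_cases he : e < m i
    · have h1 : B ⟨i, ⟨e, he⟩⟩ = ((Matrix.toLin' M) ^ e) (v i) := hB _
      have e1 : (E ⟨i, ⟨e, he⟩⟩).1 = σ i := hE1 _
      have e2 : ((E ⟨i, ⟨e, he⟩⟩).2 : ℕ) = e := hE2 _
      have h2 : B' (E ⟨i, ⟨e, he⟩⟩) = ((Matrix.toLin' M') ^ e) (v' (σ i)) := by
        rw [hB']
        show ((Matrix.toLin' M') ^ ((E ⟨i, ⟨e, he⟩⟩).2 : ℕ)) (v' (E ⟨i, ⟨e, he⟩⟩).1) = _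
        rw [e2, e1]
      rw [← h1, hφ, h2]
    · have h1 : ((Matrix.toLin' M) ^ e) (v i) = 0 :=
        pow_zero_of_le _ _ _ (h.zero i) e (by omega)
      have h2 : ((Matrix.toLin' M') ^ e) (v' (σ i)) = 0 :=
        pow_zero_of_le _ _ _ (h'.zero (σ i)) e (by rw [hσ]; omega)
      rw [h1, h2, map_zero]
  have hcomp : (φ : (Fin n → F) →ₗ[F] (Fin n → F)) ∘ₗ Matrix.toLin' M
      = Matrix.toLin' M' ∘ₗ (φ : (Fin n → F) →ₗ[F] (Fin n → F)) := by
    apply B.ext
    rintro ⟨i, l⟩
    simp only [LinearMap.comp_apply, LinearEquiv.coe_coe]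
    have h1 : B ⟨i, l⟩ = ((Matrix.toLin' M) ^ (l : ℕ)) (v i) := hB _
    rw [h1, ← pow_succ_apply, key, key, pow_succ_apply]
  exact Cfsg.Agent.S2577.conj_of_equiv M M' φ (fun w => LinearMap.congr_fun hcomp w)

/-- A matrix with prescribed Jordan chain lengths. -/
theorem exists_rep {n : ℕ} {ι : Type} [Fintype ι] (m : ι → ℕ) (hsum : ∑ i, m i = n) :
    ∃ (M : Matrix (Fin n) (Fin n) F) (v : ι → Fin n → F), JD (Matrix.toLin' M) ⊤ m v := by
  classical
  have hcard : Fintype.card (Σ i, Fin (m i)) = Fintype.card (Fin n) := by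
    rw [Fintype.card_sigma, Fintype.card_fin]
    simp only [Fintype.card_fin]
    exact hsum
  obtain ⟨e⟩ : Nonempty ((Σ i, Fin (m i)) ≃ Fin n) := ⟨Fintype.equivOfCardEq hcard⟩
  obtain ⟨bK⟩ : Nonempty (Module.Basis (Σ i, Fin (m i)) F (Fin n → F)) :=
    ⟨(Pi.basisFun F (Fin n)).reindex e.symm⟩
  obtain ⟨N, hN⟩ : ∃ N : Module.End F (Fin n → F), ∀ (i : ι) (l : ℕ) (hl : l < m i),
      N (bK ⟨i, ⟨l, hl⟩⟩) = if h : l + 1 < m i then bK ⟨i, ⟨l + 1, h⟩⟩ else 0 :=
    ⟨bK.constr F (fun x => if h : (x.2 : ℕ) + 1 < m x.1 then bK ⟨x.1, ⟨(x.2 : ℕ) + 1, h⟩⟩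
      else 0), fun i l hl => Module.Basis.constr_basis bK F _ _⟩
  obtain ⟨v, hv⟩ : ∃ v : ι → Fin n → F,
      ∀ i, v i = if h : 0 < m i then bK ⟨i, ⟨0, h⟩⟩ else 0 := ⟨_, fun i => rfl⟩
  have hchain : ∀ (i : ι) (l : ℕ) (hl : l < m i), (N ^ l) (v i) = bK ⟨i, ⟨l, hl⟩⟩ := by
    intro i l
    induction l with
    | zero =>
      intro hl
      rw [pow_zero, Module.End.one_apply, hv, dif_pos hl]
    | succ l ihl =>
      intro hl
      have hl' : l < m i := by omega
      rw [pow_succ_apply, ihl hl', hN i l hl', dif_pos hl]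
  have hfam : fam N m v = bK := by
    funext ⟨i, l⟩
    exact hchain i l l.2
  refine ⟨LinearMap.toMatrix' N, v, ?_⟩
  rw [Matrix.toLin'_toMatrix']
  refine ⟨fun i => ?_, ?_, ?_⟩
  · rcases Nat.eq_zero_or_pos (m i) with h0 | hpos
    · have hn : ¬ 0 < m i := by omega
      rw [h0, pow_zero, Module.End.one_apply, hv, dif_neg hn]
    · obtain ⟨k, hk⟩ : ∃ k, m i = k + 1 := ⟨m i - 1, by omega⟩
      have hk' : k < m i := by omega
      have hnk : ¬ k + 1 < m i := by omega
      rw [hk, pow_succ_apply, hchain i k hk', hN i k hk', dif_neg hnk]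
  · rw [hfam]; exact bK.linearIndependent
  · rw [hfam]; exact bK.span_eq

end mat

end Cfsg.Agent.Helper16.Jordan
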