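import Mathlib
import Cfsg.Agent.Helper16.Jordan

set_option autoImplicit false

/-!
More on Jordan chains (helper16): direct sums, uniqueness of the type, and an expansion
of `(T - 1) ^ e`.
-/

namespace Cfsg.Agent.Helper16.Jordan

section lin
variable {F V : Type*} [Field F] [AddCommGroup V] [Module F V]

/-- Reindexing equivalence used in `JD.sum`. -/
def sumE {ι₁ ι₂ : Type} (m₁ : ι₁ → ℕ) (m₂ : ι₂ → ℕ) :
    (Σ i : ι₁ ⊕ ι₂, Fin (Sum.elim m₁ m₂ i)) ≃ (Σ i, Fin (m₁ i)) ⊕ (Σ i, Fin (m₂ i)) where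
  toFun := fun x => match x with
    | ⟨Sum.inl i, l⟩ => Sum.inl ⟨i, l⟩
    | ⟨Sum.inr i, l⟩ => Sum.inr ⟨i, l⟩
  invFun := fun y => match y with
    | Sum.inl ⟨i, l⟩ => ⟨Sum.inl i, l⟩
    | Sum.inr ⟨i, l⟩ => ⟨Sum.inr i, l⟩
  left_inv := by rintro ⟨(i | i), l⟩ <;> rfl
  right_inv := by rintro (⟨i, l⟩ | ⟨i, l⟩) <;> rfl

theorem JD.sum {N : Module.End F V} {U₁ U₂ : Submodule F V} {ι₁ ι₂ : Type} {m₁ : ι₁ → ℕ}
    {v₁ : ι₁ → V} {m₂ : ι₂ → ℕ} {v₂ : ι₂ → V} (h₁ : JD N U₁ m₁ v₁) (h₂ : JD N U₂ m₂ v₂)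
    (hd : Disjoint U₁ U₂) : JD N (U₁ ⊔ U₂) (Sum.elim m₁ m₂) (Sum.elim v₁ v₂) := by
  have hcomp : fam N (Sum.elim m₁ m₂) (Sum.elim v₁ v₂)
      = Sum.elim (fam N m₁ v₁) (fam N m₂ v₂) ∘ sumE m₁ m₂ := by
    funext x
    rcases x with ⟨(i | i), l⟩ <;> rfl
  refine ⟨?_, ?_, ?_⟩
  · rintro (i | i)
    · exact h₁.zero i
    · exact h₂.zero i
  · rw [hcomp]
    exact (h₁.li.sum_type h₂.li (by rw [h₁.span, h₂.span]; exact hd)).comp _
      (sumE m₁ m₂).injective
  · rw [hcomp, (sumE m₁ m₂).surjective.range_comp, Set.Sum.elim_range, Submodule.span_union,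
      h₁.span, h₂.span]

theorem JD.sum_eq_finrank {N : Module.End F V} {U : Submodule F V} {ι : Type} [Fintype ι]
    {m : ι → ℕ} {v : ι → V} (h : JD N U m v) : ∑ i, m i = Module.finrank F U := by
  have h1 := finrank_span_eq_card h.li
  rw [h.span, Fintype.card_sigma] at h1
  simp only [Fintype.card_fin] at h1
  exact h1.symm

/-- The multiset of chain lengths is determined by the endomorphism. -/
theorem JD.type_unique {N : Module.End F V} {ι ι' : Type} [Fintype ι] [Fintype ι']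
    {m : ι → ℕ} {v : ι → V} {m' : ι' → ℕ} {v' : ι' → V} (h : JD N ⊤ m v) (h' : JD N ⊤ m' v')
    (hpos : ∀ i, 0 < m i) (hpos' : ∀ i, 0 < m' i) :
    Finset.univ.val.map m = Finset.univ.val.map m' := by
  classical
  have hrank : ∀ j : ℕ, ∑ i, (m i - j) = ∑ i, (m' i - j) := by
    intro j
    rw [← h.finrank_range_pow j, ← h'.finrank_range_pow j]
  have h0 : ∀ {κ : Type} [Fintype κ] (f : κ → ℕ), (∀ i, 0 < f i) →
      Multiset.count 0 (Finset.univ.val.map f) = 0 := by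
    intro κ _ f hf
    rw [Multiset.count_eq_zero, Multiset.mem_map]
    rintro ⟨i, -, hi⟩
    exact absurd hi (Nat.pos_iff_ne_zero.1 (hf i))
  refine Multiset.ext.2 (fun a => ?_)
  rcases Nat.eq_zero_or_pos a with rfl | ha
  · rw [h0 m hpos, h0 m' hpos']
  · have e1 := count_identity m a ha
    have e2 := count_identity m' a ha
    rw [hrank a, hrank (a - 1), hrank (a + 1)] at e1
    omega

/-- `(T - 1) ^ e` is a combination of `T ^ i`, `i ≤ e`, with constant coefficient `± 1`. -/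
theorem pow_sub_one_expand (T : Module.End F V) (e : ℕ) :
    ∃ c : ℕ → F, c 0 = (-1) ^ e ∧ (T - 1) ^ e = ∑ i ∈ Finset.range (e + 1), c i • T ^ i := by
  refine ⟨fun i => ((Polynomial.X - 1 : Polynomial F) ^ e).coeff i, ?_, ?_⟩
  · simp [Polynomial.coeff_zero_eq_eval_zero]
  · have h1 : Polynomial.aeval T ((Polynomial.X - 1 : Polynomial F) ^ e) = (T - 1) ^ e := by
      simp
    have h2 : ((Polynomial.X - 1 : Polynomial F) ^ e).natDegree = e := by
      have h3 : (Polynomial.X - 1 : Polynomial F) = Polynomial.X - Polynomial.C 1 := by simp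
      rw [Polynomial.natDegree_pow, h3, Polynomial.natDegree_X_sub_C, mul_one]
    rw [← h1, Polynomial.aeval_eq_sum_range, h2]

end lin

theorem univ_map_sum_elim {ι₁ ι₂ : Type} [Fintype ι₁] [Fintype ι₂] (m₁ : ι₁ → ℕ)
    (m₂ : ι₂ → ℕ) :
    (Finset.univ : Finset (ι₁ ⊕ ι₂)).val.map (Sum.elim m₁ m₂)
      = Finset.univ.val.map m₁ + Finset.univ.val.map m₂ := by
  rw [← Finset.univ_disjSum_univ, Finset.val_disjSum, Multiset.disjSum, Multiset.map_add,
    Multiset.map_map, Multiset.map_map]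
  rfl

theorem count_eq_sum {ι : Type} [Fintype ι] (m : ι → ℕ) (a : ℕ) :
    Multiset.count a (Finset.univ.val.map m) = ∑ i, (if m i = a then 1 else 0) := by
  classical
  rw [Multiset.count_map, ← Finset.filter_val, ← Finset.card_def, Finset.card_filter]
  refine Finset.sum_congr rfl (fun i _ => ?_)
  by_cases h : m i = a
  · rw [if_pos h, if_pos h.symm]
  · rw [if_neg h, if_neg (fun h' => h h'.symm)]

end Cfsg.Agent.Helper16.Jordan
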