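import Mathlib
import Cfsg.Prelude.Def_GeometricClasses

set_option autoImplicit false
open scoped MatrixGroups

namespace Cfsg.Agent.Helper16.S5998a

theorem det_of_mem {F : Type*} [Field F] (x : GL (Fin 3) F) (hx : x ∈ Cfsg.Geo.specialLinear (Fin 3) F) :
    (x : Matrix (Fin 3) (Fin 3) F).det = 1 := by
  have h : Matrix.GeneralLinearGroup.det x = 1 := MonoidHom.mem_ker.1 hx
  have h2 := congrArg Units.val h
  simpa using h2

theorem mem_of_det {F : Type*} [Field F] (x : GL (Fin 3) F) (hx : (x : Matrix (Fin 3) (Fin 3) F).det = 1) :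
    x ∈ Cfsg.Geo.specialLinear (Fin 3) F := by
  apply MonoidHom.mem_ker.2
  apply Units.ext
  simpa using hx

theorem det_ne {F : Type*} [Field F] (k : GL (Fin 3) F) : (k : Matrix (Fin 3) (Fin 3) F).det ≠ 0 := by
  have h := (Matrix.isUnit_iff_isUnit_det (k : Matrix (Fin 3) (Fin 3) F)).1 k.isUnit
  exact h.ne_zero

theorem cancel_g {F : Type*} [Field F] (X X' : Matrix (Fin 3) (Fin 3) F) (g : GL (Fin 3) F)
    (h : X * (g : Matrix (Fin 3) (Fin 3) F) = X' * (g : Matrix (Fin 3) (Fin 3) F)) : X = X' := by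
  calc X = X * ((g : Matrix (Fin 3) (Fin 3) F) * ((g⁻¹ : GL (Fin 3) F) : Matrix (Fin 3) (Fin 3) F)) := by
        rw [Units.mul_inv, Matrix.mul_one]
    _ = X' * ((g : Matrix (Fin 3) (Fin 3) F) * ((g⁻¹ : GL (Fin 3) F) : Matrix (Fin 3) (Fin 3) F)) := by
        rw [← Matrix.mul_assoc, h, Matrix.mul_assoc]
    _ = X' := by rw [Units.mul_inv, Matrix.mul_one]

theorem p0 {F : Type*} [Field F] [Fintype F] {p : ℕ} [Fact p.Prime] [CharP F p] (hF : Fintype.card F = p) (hp3 : p % 3 = 1) :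
    ∃ w0 : F, w0 ≠ 1 ∧ w0 ^ 3 = 1 := by
  classical
  have : Fact (Nat.Prime 3) := ⟨Nat.prime_three⟩
  have h3 : 3 ∣ Fintype.card Fˣ := by
    rw [Fintype.card_units, hF]
    omega
  obtain ⟨u, hu⟩ := exists_prime_orderOf_dvd_card 3 h3
  refine ⟨(u : F), ?_, ?_⟩
  · intro h
    have h1 : u = 1 := Units.ext h
    rw [h1, orderOf_one] at hu
    omega
  · have h1 := pow_orderOf_eq_one u
    rw [hu] at h1
    have h2 := congrArg Units.val h1
    simpa using h2

theorem p3 {F : Type*} [Field F] (R : Subgroup (GL (Fin 3) F)) [Finite R] (a b u g : GL (Fin 3) F) (hRab : R = Subgroup.closure {a, b})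
    (A B Y Wa Wb : Matrix (Fin 3) (Fin 3) F) (c : F)
    (ha : (a : Matrix (Fin 3) (Fin 3) F) * (g : Matrix (Fin 3) (Fin 3) F) = (g : Matrix (Fin 3) (Fin 3) F) * A)
    (hb : (b : Matrix (Fin 3) (Fin 3) F) * (g : Matrix (Fin 3) (Fin 3) F) = (g : Matrix (Fin 3) (Fin 3) F) * B)
    (hu : (u : Matrix (Fin 3) (Fin 3) F) * (g : Matrix (Fin 3) (Fin 3) F) = c • ((g : Matrix (Fin 3) (Fin 3) F) * Y))
    (hWa : Y * A = Wa * Y) (hWb : Y * B = Wb * Y)
    (hWaR : ∃ a' ∈ R, (a' : Matrix (Fin 3) (Fin 3) F) * (g : Matrix (Fin 3) (Fin 3) F) = (g : Matrix (Fin 3) (Fin 3) F) * Wa)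
    (hWbR : ∃ b' ∈ R, (b' : Matrix (Fin 3) (Fin 3) F) * (g : Matrix (Fin 3) (Fin 3) F) = (g : Matrix (Fin 3) (Fin 3) F) * Wb) :
    u ∈ Cfsg.Geo.subgroupNormalizer R := by
  classical
  obtain ⟨a', ha'R, ha'⟩ := hWaR
  obtain ⟨b', hb'R, hb'⟩ := hWbR
  have key : ∀ (s s' : GL (Fin 3) F) (S S' : Matrix (Fin 3) (Fin 3) F),
      (s : Matrix (Fin 3) (Fin 3) F) * (g : Matrix (Fin 3) (Fin 3) F) = (g : Matrix (Fin 3) (Fin 3) F) * S →
      (s' : Matrix (Fin 3) (Fin 3) F) * (g : Matrix (Fin 3) (Fin 3) F) = (g : Matrix (Fin 3) (Fin 3) F) * S' →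
      Y * S = S' * Y → u * s * u⁻¹ = s' := by
    intro s s' S S' hs hs' hYS
    have h1 : u * s = s' * u := by
      apply Units.ext
      rw [Units.val_mul, Units.val_mul]
      apply cancel_g _ _ g
      rw [Matrix.mul_assoc, hs, ← Matrix.mul_assoc, hu, Matrix.smul_mul, Matrix.mul_assoc, hYS,
        Matrix.mul_assoc, hu, Matrix.mul_smul, ← Matrix.mul_assoc, ← Matrix.mul_assoc, hs']
    rw [h1, mul_inv_cancel_right]
  have hca : u * a * u⁻¹ ∈ R := by rw [key a a' A Wa ha ha' hWa]; exact ha'R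
  have hcb : u * b * u⁻¹ ∈ R := by rw [key b b' B Wb hb hb' hWb]; exact hb'R
  have hle : Subgroup.closure {a, b} ≤ R.comap (MulAut.conj u).toMonoidHom := by
    rw [Subgroup.closure_le]
    intro x hx
    simp only [Set.mem_insert_iff, Set.mem_singleton_iff] at hx
    rcases hx with rfl | rfl
    · exact hca
    · exact hcb
  have hsub : ∀ h ∈ R, u * h * u⁻¹ ∈ R := by
    intro h hh
    have h1 : h ∈ Subgroup.closure {a, b} := by rw [← hRab]; exact hh
    exact hle h1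
  have hinj : Function.Injective (fun h : R => (⟨u * h.1 * u⁻¹, hsub h.1 h.2⟩ : R)) := by
    intro h h' hh'
    have h1 : u * h.1 * u⁻¹ = u * h'.1 * u⁻¹ := congrArg Subtype.val hh'
    apply Subtype.ext
    have h2 : h.1 = u⁻¹ * (u * h.1 * u⁻¹) * u := by group
    have h3 : h'.1 = u⁻¹ * (u * h'.1 * u⁻¹) * u := by group
    rw [h2, h3, h1]
  have hsurj := Finite.surjective_of_injective hinj
  show u ∈ Subgroup.normalizer (R : Set (GL (Fin 3) F))
  rw [Subgroup.mem_normalizer_iff]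
  intro h
  constructor
  · intro hh
    exact hsub h hh
  · intro hh
    obtain ⟨h', hh'⟩ := hsurj ⟨u * h * u⁻¹, hh⟩
    have h1 : u * h'.1 * u⁻¹ = u * h * u⁻¹ := congrArg Subtype.val hh'
    have h2 : h = h'.1 := by
      have e1 : h = u⁻¹ * (u * h * u⁻¹) * u := by group
      have e2 : h'.1 = u⁻¹ * (u * h'.1 * u⁻¹) * u := by group
      rw [e1, e2, h1]
    rw [h2]
    exact h'.2

theorem p4 {F : Type*} [Field F] (N : Subgroup (GL (Fin 3) F)) (x k g : GL (Fin 3) F) (Y E : Matrix (Fin 3) (Fin 3) F) (c : F)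
    (hx : (x : Matrix (Fin 3) (Fin 3) F) * (k : Matrix (Fin 3) (Fin 3) F) = c • ((k : Matrix (Fin 3) (Fin 3) F) * Y))
    (hE : E * Y = Y * E) (hdet : E.det * (k : Matrix (Fin 3) (Fin 3) F).det = (g : Matrix (Fin 3) (Fin 3) F).det)
    (hN : ∀ u : GL (Fin 3) F, (u : Matrix (Fin 3) (Fin 3) F) * (g : Matrix (Fin 3) (Fin 3) F) = c • ((g : Matrix (Fin 3) (Fin 3) F) * Y) → u ∈ N) :
    ∃ h ∈ Cfsg.Geo.specialLinear (Fin 3) F, h⁻¹ * x * h ∈ N := by
  classical
  have hEdet : E.det ≠ 0 := by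
    intro h0
    rw [h0, zero_mul] at hdet
    exact det_ne g hdet.symm
  obtain ⟨e, heE⟩ : ∃ e : GL (Fin 3) F, (e : Matrix (Fin 3) (Fin 3) F) = E :=
    ⟨Matrix.GeneralLinearGroup.mkOfDetNeZero E hEdet, rfl⟩
  have hgi : (g : Matrix (Fin 3) (Fin 3) F).det * ((g⁻¹ : GL (Fin 3) F) : Matrix (Fin 3) (Fin 3) F).det = 1 := by
    rw [← Matrix.det_mul, Units.mul_inv, Matrix.det_one]
  refine ⟨k * e * g⁻¹, ?_, ?_⟩
  · apply mem_of_det
    rw [Units.val_mul, Units.val_mul, Matrix.det_mul, Matrix.det_mul, heE]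
    linear_combination (((g⁻¹ : GL (Fin 3) F) : Matrix (Fin 3) (Fin 3) F).det) * hdet + hgi
  · apply hN
    have h1 : ((k⁻¹ : GL (Fin 3) F) : Matrix (Fin 3) (Fin 3) F) * (x : Matrix (Fin 3) (Fin 3) F) * (k : Matrix (Fin 3) (Fin 3) F) = c • Y := by
      rw [Matrix.mul_assoc, hx, Matrix.mul_smul, ← Matrix.mul_assoc, Units.inv_mul, Matrix.one_mul]
    have h2 : ((e⁻¹ : GL (Fin 3) F) : Matrix (Fin 3) (Fin 3) F) * Y * (e : Matrix (Fin 3) (Fin 3) F) = Y := by
      rw [heE, Matrix.mul_assoc, ← hE, ← Matrix.mul_assoc, ← heE, Units.inv_mul, Matrix.one_mul]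
    have hgrp : (k * e * g⁻¹)⁻¹ * x * (k * e * g⁻¹) * g = g * e⁻¹ * (k⁻¹ * x * k) * e := by group
    rw [← Units.val_mul, hgrp]
    simp only [Units.val_mul]
    rw [h1, Matrix.mul_smul, Matrix.smul_mul]
    congr 1
    rw [Matrix.mul_assoc, Matrix.mul_assoc, ← Matrix.mul_assoc _ Y, h2]

theorem p7 {F : Type*} [Field F] [Fintype F] (r : ℕ) [Fact r.Prime] (hr3 : r ≠ 3)
    (hr : r ∣ Nat.card ↥(Cfsg.Geo.specialLinear (Fin 3) F)) :
    ∃ x ∈ Cfsg.Geo.specialLinear (Fin 3) F, orderOf x = r ∧ (∀ z : F, (x : Matrix (Fin 3) (Fin 3) F) ≠ z • (1 : Matrix (Fin 3) (Fin 3) F)) := by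
  classical
  have hrP : r.Prime := Fact.out
  obtain ⟨x, hx⟩ := exists_prime_orderOf_dvd_card' r hr
  have hxo : orderOf (x : GL (Fin 3) F) = r := by rw [Subgroup.orderOf_coe]; exact hx
  refine ⟨(x : GL (Fin 3) F), x.2, hxo, ?_⟩
  intro z hz
  have hdet : ((x : GL (Fin 3) F) : Matrix (Fin 3) (Fin 3) F).det = 1 := det_of_mem x.1 x.2
  rw [hz] at hdet
  have hz3 : z ^ 3 = 1 := by simpa [Matrix.det_smul] using hdet
  have hxr : (x : GL (Fin 3) F) ^ r = 1 := by rw [← hxo]; exact pow_orderOf_eq_one _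
  have h1 : (((x : GL (Fin 3) F) ^ r : GL (Fin 3) F) : Matrix (Fin 3) (Fin 3) F) = 1 := by rw [hxr]; rfl
  rw [Units.val_pow_eq_pow_val, hz, smul_pow, one_pow] at h1
  have hzr : z ^ r = 1 := by
    have h2 := congrFun (congrFun h1 0) 0
    simpa using h2
  have hz1 : z = 1 := by
    have hr3' : r % 3 = 1 ∨ r % 3 = 2 := by
      have h0 : r % 3 ≠ 0 := by
        intro h0
        have h3r : 3 ∣ r := Nat.dvd_of_mod_eq_zero h0
        have h4 := (Nat.prime_dvd_prime_iff_eq Nat.prime_three hrP).1 h3r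
        exact hr3 h4.symm
      omega
    have hdecomp := Nat.div_add_mod r 3
    rcases hr3' with h | h
    · rw [← hdecomp, h, pow_add, pow_mul, hz3, one_pow, one_mul, pow_one] at hzr
      exact hzr
    · rw [← hdecomp, h, pow_add, pow_mul, hz3, one_pow, one_mul] at hzr
      linear_combination hz3 - z * hzr
  have hx1 : (x : GL (Fin 3) F) = 1 := by
    apply Units.ext
    rw [hz, hz1, one_smul]
    rfl
  rw [hx1, orderOf_one] at hxo
  exact hrP.one_lt.ne hxo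

theorem mulA {F : Type*} [Field F] (M : Matrix (Fin 3) (Fin 3) F) (d0 d1 d2 : F) (i j : Fin 3) :
    (M * !![d0,0,0; 0,d1,0; 0,0,d2]) i j = M i j * ![d0, d1, d2] j := by
  fin_cases j <;> simp [Matrix.mul_apply, Fin.sum_univ_three]

theorem Amul {F : Type*} [Field F] (M : Matrix (Fin 3) (Fin 3) F) (d0 d1 d2 : F) (i j : Fin 3) :
    (!![d0,0,0; 0,d1,0; 0,0,d2] * M) i j = ![d0, d1, d2] i * M i j := by
  fin_cases i <;> simp [Matrix.mul_apply, Fin.sum_univ_three]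

theorem mulB {F : Type*} [Field F] (M : Matrix (Fin 3) (Fin 3) F) (i j : Fin 3) :
    (M * (!![0,0,1; 1,0,0; 0,1,0] : Matrix (Fin 3) (Fin 3) F)) i j = M i (![1, 2, 0] j) := by
  fin_cases j <;> simp [Matrix.mul_apply, Fin.sum_univ_three]

theorem Bmul {F : Type*} [Field F] (M : Matrix (Fin 3) (Fin 3) F) (i j : Fin 3) :
    ((!![0,0,1; 1,0,0; 0,1,0] : Matrix (Fin 3) (Fin 3) F) * M) i j = M (![2, 0, 1] i) j := by
  fin_cases i <;> simp [Matrix.mul_apply, Fin.sum_univ_three]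

theorem p9 {F : Type*} [Field F] (w : F) (hw1 : w ≠ 1) (hw3 : w ^ 3 = 1) (a b g y : GL (Fin 3) F)
    (ha : (a : Matrix (Fin 3) (Fin 3) F) * (g : Matrix (Fin 3) (Fin 3) F) = (g : Matrix (Fin 3) (Fin 3) F) * !![1,0,0; 0,w,0; 0,0,w^2])
    (hb : (b : Matrix (Fin 3) (Fin 3) F) * (g : Matrix (Fin 3) (Fin 3) F) = (g : Matrix (Fin 3) (Fin 3) F) * !![0,0,1; 1,0,0; 0,1,0])
    (hya : y * a = a * y) (hyb : y * b = b * y) :
    ∃ z : F, (y : Matrix (Fin 3) (Fin 3) F) = z • (1 : Matrix (Fin 3) (Fin 3) F) := by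
  classical
  have hw2 : w ^ 2 ≠ 1 := by
    intro h
    apply hw1
    linear_combination hw3 - w * h
  have hw0 : w ≠ 0 := by
    intro h
    rw [h] at hw3
    norm_num at hw3
  obtain ⟨M, hM⟩ : ∃ M : Matrix (Fin 3) (Fin 3) F,
      M = ((g⁻¹ : GL (Fin 3) F) : Matrix (Fin 3) (Fin 3) F) * (y : Matrix (Fin 3) (Fin 3) F) * (g : Matrix (Fin 3) (Fin 3) F) := ⟨_, rfl⟩
  have hgM : (g : Matrix (Fin 3) (Fin 3) F) * M = (y : Matrix (Fin 3) (Fin 3) F) * (g : Matrix (Fin 3) (Fin 3) F) := by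
    rw [hM, ← Matrix.mul_assoc, ← Matrix.mul_assoc, Units.mul_inv, Matrix.one_mul]
  have comm : ∀ (s : GL (Fin 3) F) (S : Matrix (Fin 3) (Fin 3) F),
      (s : Matrix (Fin 3) (Fin 3) F) * (g : Matrix (Fin 3) (Fin 3) F) = (g : Matrix (Fin 3) (Fin 3) F) * S →
      y * s = s * y → M * S = S * M := by
    intro s S hs hys
    have hys' : (y : Matrix (Fin 3) (Fin 3) F) * (s : Matrix (Fin 3) (Fin 3) F) = (s : Matrix (Fin 3) (Fin 3) F) * (y : Matrix (Fin 3) (Fin 3) F) := by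
      rw [← Units.val_mul, ← Units.val_mul, hys]
    have h1 : (g : Matrix (Fin 3) (Fin 3) F) * (M * S) = (g : Matrix (Fin 3) (Fin 3) F) * (S * M) := by
      rw [← Matrix.mul_assoc, hgM, Matrix.mul_assoc, ← hs, ← Matrix.mul_assoc, hys', Matrix.mul_assoc, ← hgM,
        ← Matrix.mul_assoc, hs, Matrix.mul_assoc]
    have h2 := congrArg (fun T => ((g⁻¹ : GL (Fin 3) F) : Matrix (Fin 3) (Fin 3) F) * T) h1
    simp only [← Matrix.mul_assoc, Units.inv_mul, Matrix.one_mul] at h2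
    simpa [Matrix.mul_assoc] using h2
  have hA := comm a _ ha hya
  have hB := comm b _ hb hyb
  have eA : ∀ i j, M i j * ![1, w, w^2] j = ![1, w, w^2] i * M i j := by
    intro i j
    have h := congrFun (congrFun hA i) j
    rw [mulA, Amul] at h
    exact h
  have eB : ∀ i j, M i (![1, 2, 0] j) = M (![2, 0, 1] i) j := by
    intro i j
    have h := congrFun (congrFun hB i) j
    rw [mulB, Bmul] at h
    exact h
  have h01 : M 0 1 = 0 := by
    have h : M 0 1 * w = 1 * M 0 1 := eA 0 1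
    have h' : M 0 1 * (w - 1) = 0 := by linear_combination h
    exact (mul_eq_zero.1 h').resolve_right (sub_ne_zero.2 hw1)
  have h02 : M 0 2 = 0 := by
    have h : M 0 2 * w ^ 2 = 1 * M 0 2 := eA 0 2
    have h' : M 0 2 * (w ^ 2 - 1) = 0 := by linear_combination h
    exact (mul_eq_zero.1 h').resolve_right (sub_ne_zero.2 hw2)
  have h10 : M 1 0 = 0 := by
    have h : M 1 0 * 1 = w * M 1 0 := eA 1 0
    have h' : M 1 0 * (w - 1) = 0 := by linear_combination -h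
    exact (mul_eq_zero.1 h').resolve_right (sub_ne_zero.2 hw1)
  have h12 : M 1 2 = 0 := by
    have h : M 1 2 * w ^ 2 = w * M 1 2 := eA 1 2
    have h' : M 1 2 * (w * (w - 1)) = 0 := by linear_combination h
    exact (mul_eq_zero.1 h').resolve_right (mul_ne_zero hw0 (sub_ne_zero.2 hw1))
  have h20 : M 2 0 = 0 := by
    have h : M 2 0 * 1 = w ^ 2 * M 2 0 := eA 2 0
    have h' : M 2 0 * (w ^ 2 - 1) = 0 := by linear_combination -h
    exact (mul_eq_zero.1 h').resolve_right (sub_ne_zero.2 hw2)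
  have h21 : M 2 1 = 0 := by
    have h : M 2 1 * w = w ^ 2 * M 2 1 := eA 2 1
    have h' : M 2 1 * (w * (w - 1)) = 0 := by linear_combination -h
    exact (mul_eq_zero.1 h').resolve_right (mul_ne_zero hw0 (sub_ne_zero.2 hw1))
  have h11 : M 1 1 = M 0 0 := eB 1 0
  have h22 : M 2 2 = M 0 0 := by
    have h : M 2 2 = M 1 1 := eB 2 1
    rw [h, h11]
  have hMz : M = M 0 0 • (1 : Matrix (Fin 3) (Fin 3) F) := by
    ext i j
    fin_cases i <;> fin_cases j <;> simp [h01, h02, h10, h12, h20, h21, h11, h22]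
  refine ⟨M 0 0, ?_⟩
  apply cancel_g _ _ g
  rw [← hgM, hMz]
  simp [Matrix.mul_smul, Matrix.smul_mul]

theorem p11 {F : Type*} [Field F] (w : F) (hw3 : w ^ 3 = 1) (R : Subgroup (GL (Fin 3) F)) (a b g : GL (Fin 3) F) (hRab : R = Subgroup.closure {a, b})
    (ha : (a : Matrix (Fin 3) (Fin 3) F) * (g : Matrix (Fin 3) (Fin 3) F) = (g : Matrix (Fin 3) (Fin 3) F) * !![1,0,0; 0,w,0; 0,0,w^2])
    (hb : (b : Matrix (Fin 3) (Fin 3) F) * (g : Matrix (Fin 3) (Fin 3) F) = (g : Matrix (Fin 3) (Fin 3) F) * !![0,0,1; 1,0,0; 0,1,0]) :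
    R ≤ Cfsg.Geo.specialLinear (Fin 3) F := by
  classical
  have hA0 : (!![1,0,0; 0,w,0; 0,0,w^2] : Matrix (Fin 3) (Fin 3) F).det = 1 := by
    rw [Matrix.det_fin_three]
    simp
    linear_combination hw3
  have hB0 : (!![0,0,1; 1,0,0; 0,1,0] : Matrix (Fin 3) (Fin 3) F).det = 1 := by
    rw [Matrix.det_fin_three]
    simp
  have hgd := det_ne g
  have hda : (a : Matrix (Fin 3) (Fin 3) F).det = 1 := by
    have h := congrArg Matrix.det ha
    rw [Matrix.det_mul, Matrix.det_mul, hA0, mul_one] at h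
    exact mul_right_cancel₀ hgd (by rw [h, one_mul])
  have hdb : (b : Matrix (Fin 3) (Fin 3) F).det = 1 := by
    have h := congrArg Matrix.det hb
    rw [Matrix.det_mul, Matrix.det_mul, hB0, mul_one] at h
    exact mul_right_cancel₀ hgd (by rw [h, one_mul])
  rw [hRab, Subgroup.closure_le]
  intro x hx
  simp only [Set.mem_insert_iff, Set.mem_singleton_iff] at hx
  rcases hx with rfl | rfl
  · exact mem_of_det _ hda
  · exact mem_of_det _ hdb

end Cfsg.Agent.Helper16.S5998a
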