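import Mathlib
import Cfsg.Prelude.Def_GeometricClasses

set_option autoImplicit false
open scoped MatrixGroups

namespace Cfsg.Agent.Helper16.S5998p2

section
variable {F : Type*} [Field F]

theorem l1 (X : Matrix (Fin 3) (Fin 3) F) (α β : F) (P : (Fin 3 → F) → Prop)
    (hP : ∀ (v : Fin 3 → F) (c : F), P v → P (X.mulVec v - c • v)) (v : Fin 3 → F) (hv : v ≠ 0) (hPv : P v)
    (h : X.mulVec (X.mulVec v - α • v) - β • (X.mulVec v - α • v) = 0) :
    ∃ (u : Fin 3 → F) (μ : F), u ≠ 0 ∧ P u ∧ (μ = α ∨ μ = β) ∧ X.mulVec u = μ • u := by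
  by_cases h1 : X.mulVec v - α • v = 0
  · exact ⟨v, α, hv, hPv, Or.inl rfl, sub_eq_zero.1 h1⟩
  · exact ⟨X.mulVec v - α • v, β, h1, hP v α hPv, Or.inr rfl, sub_eq_zero.1 h⟩

theorem l2 (X : Matrix (Fin 3) (Fin 3) F) (hX3 : X * X * X = 1) (w0 : F) (h1 : 1 + w0 + w0 ^ 2 = 0)
    (hw03 : w0 ^ 3 = 1) (u : Fin 3 → F) :
    X.mulVec (X.mulVec (X.mulVec u - u) - w0 ^ 2 • (X.mulVec u - u))
      - w0 • (X.mulVec (X.mulVec u - u) - w0 ^ 2 • (X.mulVec u - u)) = 0 := by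
  have h3 : X.mulVec (X.mulVec (X.mulVec u)) = u := by
    rw [Matrix.mulVec_mulVec, Matrix.mulVec_mulVec, hX3, Matrix.one_mulVec]
  simp only [Matrix.mulVec_sub, Matrix.mulVec_smul, h3]
  ext i
  simp only [Pi.sub_apply, Pi.smul_apply, smul_eq_mul, Pi.zero_apply]
  linear_combination (X.mulVec u i - u i) * hw03 + (X.mulVec u i - X.mulVec (X.mulVec u) i) * h1

theorem l3 (Aa Ab Az : Matrix (Fin 3) (Fin 3) F) (hab : Aa * Ab = Az * (Ab * Aa)) (hzb : Az * Ab = Ab * Az)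
    (Abi : Matrix (Fin 3) (Fin 3) F) (hbi : Abi * Ab = 1)
    (μ α : F) (v : Fin 3 → F) (hv : v ≠ 0) (hzv : Az.mulVec v = μ • v) (hav : Aa.mulVec v = α • v) :
    Ab.mulVec v ≠ 0 ∧ Az.mulVec (Ab.mulVec v) = μ • Ab.mulVec v ∧
      Aa.mulVec (Ab.mulVec v) = (α * μ) • Ab.mulVec v := by
  refine ⟨?_, ?_, ?_⟩
  · intro h
    apply hv
    have h' : Abi.mulVec (Ab.mulVec v) = v := by rw [Matrix.mulVec_mulVec, hbi, Matrix.one_mulVec]
    rw [← h', h, Matrix.mulVec_zero]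
  · rw [Matrix.mulVec_mulVec, hzb, ← Matrix.mulVec_mulVec, hzv, Matrix.mulVec_smul]
  · rw [Matrix.mulVec_mulVec, hab, ← Matrix.mulVec_mulVec, ← Matrix.mulVec_mulVec, hav,
      Matrix.mulVec_smul, Matrix.mulVec_smul, Matrix.mulVec_mulVec, hzb, ← Matrix.mulVec_mulVec, hzv,
      Matrix.mulVec_smul, smul_smul]

theorem mv (M : Matrix (Fin 3) (Fin 3) F) (x : Fin 3 → F) (i : Fin 3) :
    M.mulVec x i = M i 0 * x 0 + M i 1 * x 1 + M i 2 * x 2 := by
  simp [Matrix.mulVec, dotProduct, Fin.sum_univ_three]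

theorem p2 (w0 : F) (hw0 : w0 ≠ 1) (hw03 : w0 ^ 3 = 1) (a b z : GL (Fin 3) F) (hz : z ≠ 1) (hab : a * b = z * (b * a)) (hza : z * a = a * z) (hzb : z * b = b * z) (ha3 : a ^ 3 = 1) (hb3 : b ^ 3 = 1) (hz3 : z ^ 3 = 1) :
    ∃ (g : GL (Fin 3) F) (w : F), w ≠ 1 ∧ w ^ 3 = 1 ∧
      (a : Matrix (Fin 3) (Fin 3) F) * (g : Matrix (Fin 3) (Fin 3) F) = (g : Matrix (Fin 3) (Fin 3) F) * !![1,0,0; 0,w,0; 0,0,w^2] ∧
      (b : Matrix (Fin 3) (Fin 3) F) * (g : Matrix (Fin 3) (Fin 3) F) = (g : Matrix (Fin 3) (Fin 3) F) * !![0,0,1; 1,0,0; 0,1,0] := by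
  classical
  have h1 : 1 + w0 + w0 ^ 2 = 0 := by
    have h : (w0 - 1) * (1 + w0 + w0 ^ 2) = 0 := by linear_combination hw03
    rcases mul_eq_zero.1 h with h | h
    · exact absurd (sub_eq_zero.1 h) hw0
    · exact h
  have hw02 : w0 ^ 2 ≠ 1 := by
    intro h
    apply hw0
    linear_combination hw03 - w0 * h
  have h3F : (3 : F) ≠ 0 := by
    intro h
    apply hw0
    have h' : (w0 - 1) ^ 2 = 0 := by linear_combination h1 - w0 * h
    exact sub_eq_zero.1 ((pow_eq_zero_iff two_ne_zero).1 h')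
  obtain ⟨Aa, hAa⟩ : ∃ Aa : Matrix (Fin 3) (Fin 3) F, Aa = (a : Matrix (Fin 3) (Fin 3) F) := ⟨_, rfl⟩
  obtain ⟨Ab, hAb⟩ : ∃ Ab : Matrix (Fin 3) (Fin 3) F, Ab = (b : Matrix (Fin 3) (Fin 3) F) := ⟨_, rfl⟩
  obtain ⟨Az, hAz⟩ : ∃ Az : Matrix (Fin 3) (Fin 3) F, Az = (z : Matrix (Fin 3) (Fin 3) F) := ⟨_, rfl⟩
  have hzm : Az ≠ 1 := by rw [hAz]; exact fun h => hz (Units.ext h)
  have hz3m : Az * Az * Az = 1 := by
    have h : z * z * z = 1 := by simpa [pow_succ] using hz3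
    rw [hAz, ← Units.val_mul, ← Units.val_mul, h, Units.val_one]
  have ha3m : Aa * Aa * Aa = 1 := by
    have h : a * a * a = 1 := by simpa [pow_succ] using ha3
    rw [hAa, ← Units.val_mul, ← Units.val_mul, h, Units.val_one]
  have hb3m : Ab * Ab * Ab = 1 := by
    have h : b * b * b = 1 := by simpa [pow_succ] using hb3
    rw [hAb, ← Units.val_mul, ← Units.val_mul, h, Units.val_one]
  have habm : Aa * Ab = Az * (Ab * Aa) := by
    rw [hAa, hAb, hAz, ← Units.val_mul, ← Units.val_mul, ← Units.val_mul, hab]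
  have hzam : Az * Aa = Aa * Az := by rw [hAz, hAa, ← Units.val_mul, ← Units.val_mul, hza]
  have hzbm : Az * Ab = Ab * Az := by rw [hAz, hAb, ← Units.val_mul, ← Units.val_mul, hzb]
  -- (i) an eigenvector of z with eigenvalue ≠ 1
  obtain ⟨u0, hu0⟩ : ∃ u0 : Fin 3 → F, Az.mulVec u0 - u0 ≠ 0 := by
    by_contra hcon
    simp only [not_exists, not_not] at hcon
    apply hzm
    ext i j
    have h := congrFun (hcon (Pi.single j 1)) i
    rw [Matrix.one_apply]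
    simpa [Matrix.mulVec, dotProduct, Pi.single_apply, sub_eq_zero] using h
  have hcub := l2 Az hz3m w0 h1 hw03 u0
  obtain ⟨v1, μ, hv1, -, hμ, hzv1⟩ := l1 Az (w0 ^ 2) w0 (fun _ => True) (fun _ _ _ => trivial)
    (Az.mulVec u0 - u0) hu0 trivial hcub
  have hμ1 : μ ≠ 1 := by
    rcases hμ with rfl | rfl
    · exact hw02
    · exact hw0
  have hμ3 : μ ^ 3 = 1 := by
    rcases hμ with rfl | rfl
    · linear_combination (w0 ^ 3 + 1) * hw03
    · exact hw03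
  have hμs : 1 + μ + μ ^ 2 = 0 := by
    have h : (μ - 1) * (1 + μ + μ ^ 2) = 0 := by linear_combination hμ3
    rcases mul_eq_zero.1 h with h | h
    · exact absurd (sub_eq_zero.1 h) hμ1
    · exact h
  -- (ii) an eigenvector of a inside the μ-eigenspace of z
  have hPcl : ∀ (v : Fin 3 → F) (c : F), Az.mulVec v = μ • v →
      Az.mulVec (Aa.mulVec v - c • v) = μ • (Aa.mulVec v - c • v) := by
    intro v c hv
    rw [Matrix.mulVec_sub, Matrix.mulVec_smul, Matrix.mulVec_mulVec, hzam, ← Matrix.mulVec_mulVec, hv,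
      Matrix.mulVec_smul, smul_sub, smul_comm c μ v]
  obtain ⟨v2, α, hv2, hzv2, hα, hav2⟩ : ∃ (u : Fin 3 → F) (α : F), u ≠ 0 ∧ Az.mulVec u = μ • u ∧
      (α = 1 ∨ α = w0 ^ 2 ∨ α = w0) ∧ Aa.mulVec u = α • u := by
    by_cases h : Aa.mulVec v1 - v1 = 0
    · exact ⟨v1, 1, hv1, hzv1, Or.inl rfl, by rw [one_smul]; exact sub_eq_zero.1 h⟩
    · have hcub2 := l2 Aa ha3m w0 h1 hw03 v1
      have hP1 : Az.mulVec (Aa.mulVec v1 - v1) = μ • (Aa.mulVec v1 - v1) := by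
        have h' := hPcl v1 1 hzv1
        rwa [one_smul] at h'
      obtain ⟨u, α, hu, hPu, hα, hau⟩ := l1 Aa (w0 ^ 2) w0 (fun v => Az.mulVec v = μ • v) hPcl
        (Aa.mulVec v1 - v1) h hP1 hcub2
      exact ⟨u, α, hu, hPu, Or.inr hα, hau⟩
  -- (iii) shift by b to get a-eigenvalue 1
  obtain ⟨Abi, hbi⟩ : ∃ Abi : Matrix (Fin 3) (Fin 3) F, Abi * Ab = 1 :=
    ⟨((b⁻¹ : GL (Fin 3) F) : Matrix (Fin 3) (Fin 3) F), by
      rw [hAb, ← Units.val_mul, inv_mul_cancel, Units.val_one]⟩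
  have hshift := fun (α : F) (v : Fin 3 → F) (hv : v ≠ 0) (hzv : Az.mulVec v = μ • v)
    (hav : Aa.mulVec v = α • v) => l3 Aa Ab Az habm hzbm Abi hbi μ α v hv hzv hav
  obtain ⟨v, hv, hzv, hav⟩ : ∃ v : Fin 3 → F, v ≠ 0 ∧ Az.mulVec v = μ • v ∧ Aa.mulVec v = v := by
    have hkey : α = 1 ∨ α * μ = 1 ∨ α * μ * μ = 1 := by
      rcases hα with rfl | rfl | rfl
      · exact Or.inl rfl
      · rcases hμ with rfl | rfl
        · right; right; linear_combination (w0 ^ 3 + 1) * hw03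
        · right; left; linear_combination hw03
      · rcases hμ with rfl | rfl
        · right; left; linear_combination hw03
        · right; right; linear_combination hw03
    obtain ⟨hb1, hb2, hb3⟩ := hshift α v2 hv2 hzv2 hav2
    obtain ⟨hc1, hc2, hc3⟩ := hshift (α * μ) _ hb1 hb2 hb3
    rcases hkey with h | h | h
    · exact ⟨v2, hv2, hzv2, by rw [hav2, h, one_smul]⟩
    · exact ⟨_, hb1, hb2, by rw [hb3, h, one_smul]⟩
    · exact ⟨_, hc1, hc2, by rw [hc3, h, one_smul]⟩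
  -- (iv) the basis v, b v, b² v
  obtain ⟨hb1, hb2, hb3⟩ := hshift 1 v hv hzv (by rw [hav, one_smul])
  obtain ⟨hc1, hc2, hc3⟩ := hshift (1 * μ) _ hb1 hb2 hb3
  obtain ⟨v', hv'⟩ : ∃ v' : Fin 3 → F, v' = Ab.mulVec v := ⟨_, rfl⟩
  rw [← hv'] at hb1 hb2 hb3 hc1 hc2 hc3
  obtain ⟨v'', hv''⟩ : ∃ v'' : Fin 3 → F, v'' = Ab.mulVec v' := ⟨_, rfl⟩
  rw [← hv''] at hc1 hc2 hc3
  have hbv'' : Ab.mulVec v'' = v := by
    rw [hv'', hv', Matrix.mulVec_mulVec, Matrix.mulVec_mulVec, hb3m, Matrix.one_mulVec]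
  obtain ⟨G, hG⟩ : ∃ G : Matrix (Fin 3) (Fin 3) F, G = Matrix.of (fun i j => ![v i, v' i, v'' i] j) :=
    ⟨_, rfl⟩
  have hG0 : ∀ i, G i 0 = v i := fun i => by rw [hG]; rfl
  have hG1 : ∀ i, G i 1 = v' i := fun i => by rw [hG]; rfl
  have hG2 : ∀ i, G i 2 = v'' i := fun i => by rw [hG]; rfl
  have hAG : Aa * G = G * !![1,0,0; 0,μ,0; 0,0,μ^2] := by
    have c0 : ∀ i, (Aa * G) i 0 = (G * !![1,0,0; 0,μ,0; 0,0,μ^2]) i 0 := by
      intro i
      have e := congrFun hav i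
      rw [mv] at e
      rw [Matrix.mul_apply, Matrix.mul_apply, Fin.sum_univ_three, Fin.sum_univ_three]
      simp [hG0, hG1, hG2]
      linear_combination e
    have c1 : ∀ i, (Aa * G) i 1 = (G * !![1,0,0; 0,μ,0; 0,0,μ^2]) i 1 := by
      intro i
      have e := congrFun hb3 i
      rw [mv] at e
      simp only [Pi.smul_apply, smul_eq_mul] at e
      rw [Matrix.mul_apply, Matrix.mul_apply, Fin.sum_univ_three, Fin.sum_univ_three]
      simp [hG0, hG1, hG2]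
      linear_combination e
    have c2 : ∀ i, (Aa * G) i 2 = (G * !![1,0,0; 0,μ,0; 0,0,μ^2]) i 2 := by
      intro i
      have e := congrFun hc3 i
      rw [mv] at e
      simp only [Pi.smul_apply, smul_eq_mul] at e
      rw [Matrix.mul_apply, Matrix.mul_apply, Fin.sum_univ_three, Fin.sum_univ_three]
      simp [hG0, hG1, hG2]
      linear_combination e
    ext i j
    fin_cases j
    · exact c0 i
    · exact c1 i
    · exact c2 i
  have hBG : Ab * G = G * !![0,0,1; 1,0,0; 0,1,0] := by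
    have c0 : ∀ i, (Ab * G) i 0 = (G * (!![0,0,1; 1,0,0; 0,1,0] : Matrix (Fin 3) (Fin 3) F)) i 0 := by
      intro i
      have e := congrFun hv' i
      rw [mv] at e
      rw [Matrix.mul_apply, Matrix.mul_apply, Fin.sum_univ_three, Fin.sum_univ_three]
      simp [hG0, hG1, hG2]
      linear_combination -e
    have c1 : ∀ i, (Ab * G) i 1 = (G * (!![0,0,1; 1,0,0; 0,1,0] : Matrix (Fin 3) (Fin 3) F)) i 1 := by
      intro i
      have e := congrFun hv'' i
      rw [mv] at e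
      rw [Matrix.mul_apply, Matrix.mul_apply, Fin.sum_univ_three, Fin.sum_univ_three]
      simp [hG0, hG1, hG2]
      linear_combination -e
    have c2 : ∀ i, (Ab * G) i 2 = (G * (!![0,0,1; 1,0,0; 0,1,0] : Matrix (Fin 3) (Fin 3) F)) i 2 := by
      intro i
      have e := congrFun hbv'' i
      rw [mv] at e
      rw [Matrix.mul_apply, Matrix.mul_apply, Fin.sum_univ_three, Fin.sum_univ_three]
      simp [hG0, hG1, hG2]
      linear_combination e
    ext i j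
    fin_cases j
    · exact c0 i
    · exact c1 i
    · exact c2 i
  have hdet : G.det ≠ 0 := by
    intro hdet0
    obtain ⟨c, hc0, hc⟩ := Matrix.exists_mulVec_eq_zero_iff.2 hdet0
    have h2 : G.mulVec ((!![1,0,0; 0,μ,0; 0,0,μ^2] : Matrix (Fin 3) (Fin 3) F).mulVec c) = 0 := by
      rw [Matrix.mulVec_mulVec, ← hAG, ← Matrix.mulVec_mulVec, hc, Matrix.mulVec_zero]
    have h3 : G.mulVec ((!![1,0,0; 0,μ,0; 0,0,μ^2] : Matrix (Fin 3) (Fin 3) F).mulVec
        ((!![1,0,0; 0,μ,0; 0,0,μ^2] : Matrix (Fin 3) (Fin 3) F).mulVec c)) = 0 := by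
      rw [Matrix.mulVec_mulVec, ← hAG, ← Matrix.mulVec_mulVec, h2, Matrix.mulVec_zero]
    have hcomp : ∀ i, v i * c 0 = 0 ∧ v' i * c 1 = 0 ∧ v'' i * c 2 = 0 := by
      intro i
      have e1 := congrFun hc i
      have e2 := congrFun h2 i
      have e3 := congrFun h3 i
      simp only [mv] at e1 e2 e3
      simp [hG0, hG1, hG2] at e1 e2 e3
      refine ⟨?_, ?_, ?_⟩
      · have h : 3 * (v i * c 0) = 0 := by
          linear_combination e1 + e2 + e3 - (v' i * c 1) * hμs - (v'' i * c 2) * hμs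
            - (v'' i * c 2) * μ * hμ3
        exact (mul_eq_zero.1 h).resolve_left h3F
      · have h : 3 * (v' i * c 1) = 0 := by
          linear_combination e1 + μ ^ 2 * e2 + μ * e3 - (v i * c 0) * hμs
            - 2 * (v' i * c 1) * hμ3 - (v'' i * c 2) * hμs - (v'' i * c 2) * (μ + μ ^ 2) * hμ3
        exact (mul_eq_zero.1 h).resolve_left h3F
      · have h : 3 * (v'' i * c 2) = 0 := by
          linear_combination e1 + μ * e2 + μ ^ 2 * e3 - (v i * c 0) * hμs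
            - (v' i * c 1) * hμs - (v' i * c 1) * μ * hμ3 - (v'' i * c 2) * (μ ^ 3 + 2) * hμ3
        exact (mul_eq_zero.1 h).resolve_left h3F
    have hc_0 : c 0 = 0 := by
      obtain ⟨i, hi⟩ := Function.ne_iff.1 hv
      exact (mul_eq_zero.1 (hcomp i).1).resolve_left hi
    have hc_1 : c 1 = 0 := by
      obtain ⟨i, hi⟩ := Function.ne_iff.1 hb1
      exact (mul_eq_zero.1 (hcomp i).2.1).resolve_left hi
    have hc_2 : c 2 = 0 := by
      obtain ⟨i, hi⟩ := Function.ne_iff.1 hc1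
      exact (mul_eq_zero.1 (hcomp i).2.2).resolve_left hi
    apply hc0
    funext j
    fin_cases j
    · exact hc_0
    · exact hc_1
    · exact hc_2
  refine ⟨Matrix.GeneralLinearGroup.mkOfDetNeZero G hdet, μ, hμ1, hμ3, ?_, ?_⟩
  · rw [← hAa]; exact hAG
  · rw [← hAb]; exact hBG

end

end Cfsg.Agent.Helper16.S5998p2
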