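import Mathlib
import Cfsg.Prelude.Def_GeometricClasses
import Cfsg.Agent.S2670

set_option autoImplicit false
open scoped MatrixGroups

namespace Cfsg.Agent.Helper16.S5998p6

open Cfsg.Agent.S2670 (zp)

theorem cube_root {F : Type*} [Field F] [Fintype F] (h9 : 9 ∣ Fintype.card F - 1) (z : F) (hz3 : z ^ 3 = 1) :
    ∃ ζ : F, ζ ^ 3 = z := by
  classical
  have hz0 : z ≠ 0 := by
    intro h
    rw [h] at hz3
    norm_num at hz3
  obtain ⟨γ, hγ⟩ := IsCyclic.exists_monoid_generator (α := Fˣ)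
  obtain ⟨m, hm⟩ := (Submonoid.mem_powers_iff _ _).1 (hγ (Units.mk0 z hz0))
  have hord : orderOf γ = Fintype.card F - 1 := by
    have h1 : orderOf γ = Nat.card Fˣ := orderOf_eq_card_of_forall_mem_zpowers (fun y => by
      obtain ⟨n, hn⟩ := (Submonoid.mem_powers_iff _ _).1 (hγ y)
      exact Subgroup.mem_zpowers_iff.2 ⟨(n : ℤ), by rw [zpow_natCast]; exact hn⟩)
    rw [h1, Nat.card_eq_fintype_card, Fintype.card_units]
  have h3m : γ ^ (m * 3) = 1 := by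
    rw [pow_mul, hm]
    apply Units.ext
    simpa using hz3
  have hdvd : Fintype.card F - 1 ∣ m * 3 := by
    rw [← hord]
    exact orderOf_dvd_of_pow_eq_one h3m
  have h3 : 3 ∣ m := by
    have h : 9 ∣ m * 3 := dvd_trans h9 hdvd
    omega
  obtain ⟨m', rfl⟩ := h3
  refine ⟨((γ ^ m' : Fˣ) : F), ?_⟩
  have h4 : (γ ^ m') ^ 3 = Units.mk0 z hz0 := by rw [← pow_mul, mul_comm, hm]
  have h5 := congrArg Units.val h4
  simpa using h5

theorem rank_zero_imp {F : Type*} [Field F] (A : Matrix (Fin 3) (Fin 3) F) (h : A.rank = 0) : A = 0 := by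
  have h1 : LinearMap.range A.mulVecLin = ⊥ := Submodule.finrank_eq_zero.1 h
  have h2 : A.mulVecLin = 0 := LinearMap.range_eq_bot.1 h1
  ext i j
  have h3 := congrFun (congrArg (fun f => f (Pi.single j 1)) h2) i
  simpa [Matrix.mulVec, dotProduct, Pi.single_apply] using h3

/-- label counts -/
def cf (a b c j : ZMod 3) : ℕ :=
  (if a = j then 1 else 0) + (if b = j then 1 else 0) + (if c = j then 1 else 0)

theorem cnt (a b c j : ZMod 3) :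
    Nat.card {i : Fin 3 // (![a, b, c] : Fin 3 → ZMod 3) i = j} = cf a b c j := by
  rw [Nat.card_eq_fintype_card]
  revert a b c j
  decide

theorem j3 (j : ZMod 3) : j = 0 ∨ j = 1 ∨ j = 2 := by
  revert j
  decide

theorem diag_lab {F : Type*} [Field F] (w : F) (a b c : ZMod 3) :
    Matrix.diagonal (fun i => zp w ((![a, b, c] : Fin 3 → ZMod 3) i))
      = (!![zp w a,0,0; 0,zp w b,0; 0,0,zp w c] : Matrix (Fin 3) (Fin 3) F) := by
  ext i j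
  fin_cases i <;> fin_cases j <;> simp [Matrix.diagonal]

theorem smul_diag {F : Type*} [Field F] (α d0 d1 d2 : F) :
    α • (!![d0,0,0; 0,d1,0; 0,0,d2] : Matrix (Fin 3) (Fin 3) F) = !![α*d0,0,0; 0,α*d1,0; 0,0,α*d2] := by
  ext i j
  fin_cases i <;> fin_cases j <;> simp

theorem cases7 (r0 r1 r2 : ℕ) (hs : (3 - r0) + (3 - r1) + (3 - r2) = 3) (a0 : r0 ≤ 3) (a1 : r1 ≤ 3)
    (a2 : r2 ≤ 3) (b0 : r0 ≠ 0) (b1 : r1 ≠ 0) (b2 : r2 ≠ 0) :
    (r0 = 2 ∧ r1 = 2 ∧ r2 = 2) ∨ (r0 = 1 ∧ r1 = 2 ∧ r2 = 3) ∨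
      (r0 = 1 ∧ r1 = 3 ∧ r2 = 2) ∨ (r0 = 2 ∧ r1 = 1 ∧ r2 = 3) ∨ (r0 = 3 ∧ r1 = 1 ∧ r2 = 2) ∨
      (r0 = 2 ∧ r1 = 3 ∧ r2 = 1) ∨ (r0 = 3 ∧ r1 = 2 ∧ r2 = 1) := by
  have c0 : 1 ≤ r0 := Nat.one_le_iff_ne_zero.2 b0
  have c1 : 1 ≤ r1 := Nat.one_le_iff_ne_zero.2 b1
  have c2 : 1 ≤ r2 := Nat.one_le_iff_ne_zero.2 b2
  interval_cases r0 <;> interval_cases r1 <;> interval_cases r2 <;> simp_all

theorem p6 {F : Type*} [Field F] [Fintype F] (h9 : 9 ∣ Fintype.card F - 1) (w : F) (hw1 : w ≠ 1) (hw3 : w ^ 3 = 1) (x : GL (Fin 3) F) (hdet : (x : Matrix (Fin 3) (Fin 3) F).det = 1) (z : F)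
    (hx3 : ((x ^ 3 : GL (Fin 3) F) : Matrix (Fin 3) (Fin 3) F) = z • (1 : Matrix (Fin 3) (Fin 3) F))
    (hns : ∀ z : F, (x : Matrix (Fin 3) (Fin 3) F) ≠ z • (1 : Matrix (Fin 3) (Fin 3) F)) :
    ∃ (k : GL (Fin 3) F) (c : F),
      (x : Matrix (Fin 3) (Fin 3) F) * (k : Matrix (Fin 3) (Fin 3) F) = c • ((k : Matrix (Fin 3) (Fin 3) F) * !![1,0,0; 0,w,0; 0,0,w^2]) ∨
      (x : Matrix (Fin 3) (Fin 3) F) * (k : Matrix (Fin 3) (Fin 3) F) = c • ((k : Matrix (Fin 3) (Fin 3) F) * !![1,0,0; 0,1,0; 0,0,w]) ∨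
      (x : Matrix (Fin 3) (Fin 3) F) * (k : Matrix (Fin 3) (Fin 3) F) = c • ((k : Matrix (Fin 3) (Fin 3) F) * !![1,0,0; 0,1,0; 0,0,w^2]) := by
  classical
  have h1w : 1 + w + w ^ 2 = 0 := by
    have h : (w - 1) * (1 + w + w ^ 2) = 0 := by linear_combination hw3
    rcases mul_eq_zero.1 h with h | h
    · exact absurd (sub_eq_zero.1 h) hw1
    · exact h
  have h3F : ((3 : ℕ) : F) ≠ 0 := by
    intro h
    apply hw1
    have h' : (w - 1) ^ 2 = 0 := by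
      push_cast at h
      linear_combination h1w - w * h
    exact sub_eq_zero.1 ((pow_eq_zero_iff two_ne_zero).1 h')
  have hord : orderOf w = 3 := orderOf_eq_prime hw3 hw1
  have hx3' : (x : Matrix (Fin 3) (Fin 3) F) ^ 3 = z • (1 : Matrix (Fin 3) (Fin 3) F) := by
    rw [← Units.val_pow_eq_pow_val]
    exact hx3
  have hz3 : z ^ 3 = 1 := by
    have h := congrArg Matrix.det hx3'
    rw [Matrix.det_pow, hdet, one_pow, Matrix.det_smul, Matrix.det_one, mul_one, Fintype.card_fin] at h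
    exact h.symm
  have hz0 : z ≠ 0 := by
    intro h
    rw [h] at hz3
    norm_num at hz3
  obtain ⟨ζ, hζ⟩ := cube_root h9 z hz3
  have hζ0 : ζ ≠ 0 := by
    intro h
    apply hz0
    rw [← hζ, h]
    norm_num
  obtain ⟨M, hM⟩ : ∃ M : Matrix (Fin 3) (Fin 3) F, M = ζ⁻¹ • (x : Matrix (Fin 3) (Fin 3) F) := ⟨_, rfl⟩
  have hxM : (x : Matrix (Fin 3) (Fin 3) F) = ζ • M := by
    rw [hM, smul_smul, mul_inv_cancel₀ hζ0, one_smul]
  have hM3 : M ^ 3 = 1 := by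
    rw [hM, smul_pow, hx3', smul_smul, inv_pow, hζ, inv_mul_cancel₀ hz0, one_smul]
  obtain ⟨ρ, hρ⟩ : ∃ ρ : ZMod 3 → ℕ, ∀ j, ρ j = (M - zp w j • (1 : Matrix (Fin 3) (Fin 3) F)).rank :=
    ⟨_, fun _ => rfl⟩
  have hsum : ∑ j : ZMod 3, (3 - (M - zp w j • (1 : Matrix (Fin 3) (Fin 3) F)).rank) = 3 :=
    Cfsg.Agent.S2670.sum_mult w hord h3F M hM3
  have hs3 : ∀ f : ZMod 3 → ℕ, ∑ j : ZMod 3, f j = f 0 + f 1 + f 2 := by
    intro f
    exact Fin.sum_univ_three f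
  have hsum' : (3 - ρ 0) + (3 - ρ 1) + (3 - ρ 2) = 3 := by
    rw [hρ 0, hρ 1, hρ 2]
    rw [hs3] at hsum
    exact hsum
  have hle : ∀ j, ρ j ≤ 3 := by
    intro j
    rw [hρ j]
    exact Matrix.rank_le_width (M - zp w j • (1 : Matrix (Fin 3) (Fin 3) F))
  have hpos : ∀ j, ρ j ≠ 0 := by
    intro j h0
    rw [hρ j] at h0
    have h1 := rank_zero_imp _ h0
    apply hns (ζ * zp w j)
    rw [hxM, sub_eq_zero.1 h1, smul_smul]
  have hcases := cases7 (ρ 0) (ρ 1) (ρ 2) hsum' (hle 0) (hle 1) (hle 2) (hpos 0) (hpos 1) (hpos 2)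
  have hfin : ∀ (a b c : ZMod 3) (α : F) (Y : Matrix (Fin 3) (Fin 3) F),
      (!![zp w a,0,0; 0,zp w b,0; 0,0,zp w c] : Matrix (Fin 3) (Fin 3) F) = α • Y →
      (∀ j, ρ j = 3 - cf a b c j) →
      ∃ k : GL (Fin 3) F, (x : Matrix (Fin 3) (Fin 3) F) * (k : Matrix (Fin 3) (Fin 3) F)
        = (ζ * α) • ((k : Matrix (Fin 3) (Fin 3) F) * Y) := by
    intro a b c α Y hD hcnt
    have hm : ∀ j : ZMod 3, (M - zp w j • (1 : Matrix (Fin 3) (Fin 3) F)).rank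
        = (Matrix.diagonal (fun i => zp w ((![a, b, c] : Fin 3 → ZMod 3) i))
            - zp w j • (1 : Matrix (Fin 3) (Fin 3) F)).rank := by
      intro j
      rw [Cfsg.Agent.S2670.rank_diag w hord, cnt, ← hρ j, hcnt j]
    obtain ⟨x', hx'⟩ := Cfsg.Agent.S2670.conj_mult w hord h3F M _ hM3
      (Cfsg.Agent.S2670.diag_pow w hw3 _) hm
    rw [diag_lab, hD] at hx'
    refine ⟨x'⁻¹, ?_⟩
    have h1 : M * ((x'⁻¹ : GL (Fin 3) F) : Matrix (Fin 3) (Fin 3) F)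
        = ((x'⁻¹ : GL (Fin 3) F) : Matrix (Fin 3) (Fin 3) F) * (α • Y) := by
      have e1 : (x' : Matrix (Fin 3) (Fin 3) F) * (M * ((x'⁻¹ : GL (Fin 3) F) : Matrix (Fin 3) (Fin 3) F))
          = (x' : Matrix (Fin 3) (Fin 3) F) * (((x'⁻¹ : GL (Fin 3) F) : Matrix (Fin 3) (Fin 3) F) * (α • Y)) := by
        rw [← Matrix.mul_assoc, hx', Matrix.mul_assoc, Units.mul_inv, Matrix.mul_one, ← Matrix.mul_assoc,
          Units.mul_inv, Matrix.one_mul]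
      have e2 := congrArg (fun T => ((x'⁻¹ : GL (Fin 3) F) : Matrix (Fin 3) (Fin 3) F) * T) e1
      simp only [← Matrix.mul_assoc, Units.inv_mul, Matrix.one_mul] at e2
      exact e2
    rw [hxM, Matrix.smul_mul, h1, Matrix.mul_smul, smul_smul]
  have zp0 : zp w (0 : ZMod 3) = 1 := by
    show w ^ (0 : ZMod 3).val = 1
    rw [show (0 : ZMod 3).val = 0 from rfl, pow_zero]
  have zp1 : zp w (1 : ZMod 3) = w := by
    show w ^ (1 : ZMod 3).val = w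
    rw [show (1 : ZMod 3).val = 1 from rfl, pow_one]
  have zp2 : zp w (2 : ZMod 3) = w ^ 2 := by
    show w ^ (2 : ZMod 3).val = w ^ 2
    rw [show (2 : ZMod 3).val = 2 from rfl]
  have e1 : w * w ^ 2 = 1 := by linear_combination hw3
  have e2 : w ^ 2 * w = 1 := by linear_combination hw3
  have e3 : w ^ 2 * w ^ 2 = w := by linear_combination w * hw3
  rcases hcases with ⟨h0, h1, h2⟩ | ⟨h0, h1, h2⟩ | ⟨h0, h1, h2⟩ | ⟨h0, h1, h2⟩ | ⟨h0, h1, h2⟩ |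
    ⟨h0, h1, h2⟩ | ⟨h0, h1, h2⟩
  · obtain ⟨k, hk⟩ := hfin 0 1 2 1 !![1,0,0; 0,w,0; 0,0,w^2] (by rw [zp0, zp1, zp2, one_smul])
      (by intro j; rcases j3 j with rfl | rfl | rfl <;> simp only [h0, h1, h2] <;> decide)
    exact ⟨k, ζ * 1, Or.inl hk⟩
  · obtain ⟨k, hk⟩ := hfin 0 0 1 1 !![1,0,0; 0,1,0; 0,0,w] (by rw [zp0, zp1, one_smul])
      (by intro j; rcases j3 j with rfl | rfl | rfl <;> simp only [h0, h1, h2] <;> decide)
    exact ⟨k, ζ * 1, Or.inr (Or.inl hk)⟩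
  · obtain ⟨k, hk⟩ := hfin 0 0 2 1 !![1,0,0; 0,1,0; 0,0,w^2] (by rw [zp0, zp2, one_smul])
      (by intro j; rcases j3 j with rfl | rfl | rfl <;> simp only [h0, h1, h2] <;> decide)
    exact ⟨k, ζ * 1, Or.inr (Or.inr hk)⟩
  · obtain ⟨k, hk⟩ := hfin 1 1 0 w !![1,0,0; 0,1,0; 0,0,w^2]
      (by rw [zp1, zp0, smul_diag, mul_one, e1])
      (by intro j; rcases j3 j with rfl | rfl | rfl <;> simp only [h0, h1, h2] <;> decide)
    exact ⟨k, ζ * w, Or.inr (Or.inr hk)⟩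
  · obtain ⟨k, hk⟩ := hfin 1 1 2 w !![1,0,0; 0,1,0; 0,0,w]
      (by rw [zp1, zp2, smul_diag, mul_one, ← sq])
      (by intro j; rcases j3 j with rfl | rfl | rfl <;> simp only [h0, h1, h2] <;> decide)
    exact ⟨k, ζ * w, Or.inr (Or.inl hk)⟩
  · obtain ⟨k, hk⟩ := hfin 2 2 0 (w ^ 2) !![1,0,0; 0,1,0; 0,0,w]
      (by rw [zp2, zp0, smul_diag, mul_one, e2])
      (by intro j; rcases j3 j with rfl | rfl | rfl <;> simp only [h0, h1, h2] <;> decide)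
    exact ⟨k, ζ * w ^ 2, Or.inr (Or.inl hk)⟩
  · obtain ⟨k, hk⟩ := hfin 2 2 1 (w ^ 2) !![1,0,0; 0,1,0; 0,0,w^2]
      (by rw [zp2, zp1, smul_diag, mul_one, e3])
      (by intro j; rcases j3 j with rfl | rfl | rfl <;> simp only [h0, h1, h2] <;> decide)
    exact ⟨k, ζ * w ^ 2, Or.inr (Or.inr hk)⟩

end Cfsg.Agent.Helper16.S5998p6
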